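import Cfsg.Agent.Eq.Def_ClassicalGeometry
import Cfsg.Agent.Classical.SympFormStd
import Cfsg.Agent.SympGeo.LagrangianPair

/-! Maximality in `Sp_2m`, small `m` allowed. -/

set_option autoImplicit false
open Cfsg

namespace CfsgLib.SmallSp.Lagrangian

/-- The maximality statement for small `m`. -/
theorem lagrangian_isMaximal {F : Type*} [Field F] [Fintype F] (m : ℕ) (hm : 3 ≤ m) (hodd : Odd (Fintype.card F)) (D : Fin 2 → Submodule F (Fin m ⊕ Fin m → F)) (hD : Cfsg.Geo.IsMDecomposition m D) (hts : ∀ i, Cfsg.Geo.IsTotallySingularFor (Cfsg.sympForm m F) (D i)) : Cfsg.Geo.IsMaximalIn (Cfsg.spGL m F) (Cfsg.Geo.decompositionStabilizer D ⊓ Cfsg.spGL m F) := by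
  have hd := hD.finrank_eq
  have hf := CfsgLib.SympFormStd.isSymplecticForm m F
  have h2F : (2 : F) ≠ 0 := by
    intro h
    have h1 : ringChar F = 2 := CharP.ringChar_of_prime_eq_zero Nat.prime_two (by exact_mod_cast h)
    have h2 := FiniteField.even_card_of_char_two h1
    obtain ⟨j, hj⟩ := hodd
    omega
  have hperp : ∀ i, (CfsgLib.SympGeo.sform hf).orthogonal (D i) = D i := by
    intro i
    refine (Submodule.eq_of_le_of_finrank_le (show D i ≤ (CfsgLib.SympGeo.sform hf).orthogonal (D i) from fun x hx y hy => hts i y hy x hx) ?_).symm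
    have := CfsgLib.SympGeo.finrank_sperp_add hf (D i)
    rw [hd, Fintype.card_sum, Fintype.card_fin] at this
    rw [hd]
    omega
  have htop : D 0 ⊔ D 1 = ⊤ :=
    eq_top_iff.2 (hD.iSup_eq_top ▸ iSup_le (Fin.forall_fin_two.2 ⟨le_sup_left, le_sup_right⟩))
  have hinf : ∀ x ∈ D 0, x ∈ D 1 → x = 0 :=
    Submodule.disjoint_def.1 (hD.indep.pairwiseDisjoint (show (0 : Fin 2) ≠ 1 by decide))
  have hmap : ∀ (g : Matrix.GeneralLinearGroup (Fin m ⊕ Fin m) F) (i j : Fin 2),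
      (D i).map (Matrix.toLin' (g : Matrix (Fin m ⊕ Fin m) (Fin m ⊕ Fin m) F)) = D j ↔
        ∀ x ∈ D i, (g : Matrix (Fin m ⊕ Fin m) (Fin m ⊕ Fin m) F).mulVec x ∈ D j := by
    refine fun g i j => ⟨fun h x hx => h ▸ ⟨x, hx, Matrix.toLin'_apply _ x⟩, fun h => ?_⟩
    refine Submodule.eq_of_le_of_finrank_le ?_ (by
      rw [(Submodule.equivMapOfInjective _ (fun a b hab => by
        have := congrArg (((g⁻¹ : Matrix.GeneralLinearGroup (Fin m ⊕ Fin m) F) :
          Matrix (Fin m ⊕ Fin m) (Fin m ⊕ Fin m) F).mulVec) hab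
        simpa [Matrix.toLin'_apply, CfsgLib.TransvGL.inv_mulVec_mulVec] using this) _).finrank_eq.symm, hd, hd])
    rintro _ ⟨x, hx, rfl⟩
    rw [Matrix.toLin'_apply]
    exact h x hx
  refine CfsgLib.SympGeo.lagrPair_isMaximal (hf := hf) h2F
    ⟨hperp 0, hperp 1, htop, hinf, by rw [hd]; omega⟩ (Cfsg.spGL m F) _ (fun g => CfsgLib.SympFormStd.mem_spGL) fun g => ?_
  constructor
  · rintro ⟨⟨σ, hσ⟩, hg⟩
    refine ⟨hg, ?_⟩
    by_cases h : σ 0 = 0
    · have h1 : σ 1 = 1 := by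
        have := σ.injective.ne (show (1 : Fin 2) ≠ 0 by decide)
        omega
      exact Or.inl ⟨(hmap g 0 0).1 ((hσ 0).trans (by rw [h])), (hmap g 1 1).1 ((hσ 1).trans (by rw [h1]))⟩
    · have h0 : σ 0 = 1 := by omega
      have h1 : σ 1 = 0 := by
        have := σ.injective.ne (show (1 : Fin 2) ≠ 0 by decide)
        omega
      exact Or.inr ⟨(hmap g 0 1).1 ((hσ 0).trans (by rw [h0])), (hmap g 1 0).1 ((hσ 1).trans (by rw [h1]))⟩
  · rintro ⟨hg, ⟨h0, h1⟩ | ⟨h0, h1⟩⟩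
    · exact ⟨⟨1, Fin.forall_fin_two.2 ⟨(hmap g 0 0).2 h0, (hmap g 1 1).2 h1⟩⟩, hg⟩
    · exact ⟨⟨Equiv.swap 0 1, Fin.forall_fin_two.2
        ⟨by rw [Equiv.swap_apply_left]; exact (hmap g 0 1).2 h0,
         by rw [Equiv.swap_apply_right]; exact (hmap g 1 0).2 h1⟩⟩, hg⟩

end CfsgLib.SmallSp.Lagrangian
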